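import Cfsg.Agent.Mult.Slices
import Cfsg.Agent.SuzC.Tabs

set_option autoImplicit false
set_option Elab.async false
set_option maxRecDepth 100000
set_option linter.all false

namespace Cfsg.Agent.SuzC
open Cfsg.Agent.CGT

open Cfsg.Agent.Mult

noncomputable def u5_D : PC := ⟨5, 2, 3, 21,
  [[0, 8], [0, 0]],
  [0, 0],
  [(2, 1, 0x12), (2, 8, 3)], 9, 0x1000100000001⟩
noncomputable def u5_ds : List (List ℕ) := [[6, 0, 4, 6, 0, 2, 0, 10, 2, 4, 2, 6, 4, 8, 6, 4, 10, 2, 4, 6, 8, 12, 2, 0, 4, 6, 4, 2, 8, 6, 4, 6, 8, 12], [4, 12, 2, 6, 4, 6, 12, 8, 4, 6, 2, 4, 0, 2, 12, 2, 10, 0, 2, 4, 6, 4, 2, 8, 6, 4, 6, 10, 8, 6, 4, 2, 4, 6, 8, 10, 2, 4, 6, 4, 2, 10, 8, 6, 4, 2, 6, 8, 6], [2, 6, 12, 0, 2, 12, 10, 6, 4, 6, 8, 2, 4, 6, 2, 4, 0, 2, 12, 2, 10, 6, 8, 2, 0, 2, 4, 6, 4, 2, 4, 2, 0, 10, 2, 0, 2, 8, 12, 2, 0, 2]]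
noncomputable def u5_c : Mult.Cert := ⟨23, 18, [[], []],
  [],
  [[8, 0x32], [0, 0xe]]⟩
theorem u5_all : allB u5_D u5_c [.fus 2 [1, 0] [0, 1], .fus 2 [1, 1, 1, 1, 1] [], .fus 2 [0, 0, 0, 0, 0] []] 11 m_ts u5_ds [2, 518, 45, 25, 1, 995, 0] [(45, [8]), (0, [0x21])] = true := by decide +kernel
theorem u5_pb {G : Type*} [Group G] [Finite G] {φ : G →* Equiv.Perm ℕ} {γ : ℕ → G}
    (M : Model φ γ 11 l0_ns m_ts) (hB : IsBase φ ⊤ [2, 518, 45, 25, 1, 995, 0]) (hN : Nat.card G = 448345497600) : PBound G 5 0 :=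
  pbound_all M hB hN (by decide +kernel) (by decide +kernel) u5_all

end Cfsg.Agent.SuzC
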