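import Cfsg.Agent.Mult.Slices
import Cfsg.Agent.SuzC.Mulc2D

set_option autoImplicit false
set_option Elab.async false
set_option maxRecDepth 100000
set_option linter.all false

namespace Cfsg.Agent.SuzC
open Cfsg.Agent.CGT

open Cfsg.Agent.Mult

set_option Elab.async false
theorem mulc2_p0 : holdsB 15 mulc2_ns (takeL 28 (dropL 0 RR)) = true := by decide +kernel
theorem mulc2_p1 : holdsB 15 mulc2_ns (takeL 5 (dropL 28 RR)) = true := by decide +kernel
theorem mulc2_m0 : monB 2 mulc2_ns mulc2_C mulc2_U RR mulc2_a 0 33 = true := by decide +kernel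
theorem mulc2_i : invB mulc2_ns mulc2_U RR mulc2_a 33 = true := by decide +kernel

end Cfsg.Agent.SuzC
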